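import Cfsg.Agent.H13.Co3Mult.Data

/-! The checks of the certificate at 3 for the third Conway group. -/

set_option autoImplicit false
set_option maxRecDepth 100000

namespace Cfsg.Agent.H13.Co3Mult

open Cfsg.Agent.H13.SylMult

theorem pc3_ok : pc3.ok cert3 = true := by decide +kernel

theorem rows3_ok : cert3.rowsOk pc3 = true := by decide +kernel

theorem combos3_ok : cert3.combosOk pc3 = true := by decide +kernel

theorem perm3_ok : perm3.ok pc3 cert3 = true := by decide +kernel

end Cfsg.Agent.H13.Co3Mult
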